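import Cfsg.Agent.H14.Mn26

/-!
# Invariant bilinear and trilinear forms on the Griess algebra
-/

set_option autoImplicit false

namespace H15.NP

local notation "Sh" => H14.Mn.Sh

open Finset Matrix H14.Mj H14.Mn MulAction

attribute [-simp] Fintype.sum_option
attribute [local irreducible] Fintype.piFinset

variable {s : E} {v : V}

/-- a basis vector of the second part -/
def xv (s : E) (h : Sh s) : V := ⟨(0, de s, 0), transpose_zero, de_su h⟩

theorem Bf_xv (h : Sh s) (v : V) : Bf (xv s h) v = 32 * v.1.2.1 s := by simp [Bf_eq, bf, xv, de, fr]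

theorem qq_xv (h : Sh s) (η : ZMod 2) (e : E) : qq η e • xv s h = χ (B e s) • xv s h := Subtype.ext (by
  refine Prod.ext ?_ (Prod.ext (funext fun f => ?_) ?_)
  · rw [qq_1]; simp [xv]
  · rw [qq_2]
    rcases eq_or_ne f s with rfl | n
    · simp [xv]
    · simp [xv, de_ne n]
  · rw [qq_3]; simp [xv])

theorem wt_one (h : Sh s) (h1 : s ≠ r0) (h2 : ¬ Sh (r0 + s)) (hz : zM • v = v)
    (k : ∀ e, B e r0 = 0 → qq 0 e • v = χ (B e s) • v) : v = v.1.2.1 s • xv s h := by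
  obtain ⟨f, f1, f2⟩ := exists_B2 h.ne h1
  have a1 := k f f1
  rw [f2, χ_one, show (-1 : ℝ) • v = -v from neg_one_smul ℝ v] at a1
  refine Subtype.ext (Prod.ext ?_ (Prod.ext (funext fun e => ?_) ?_))
  · have := qq_1 (η := 0) f v
    rw [a1] at this
    refine Matrix.ext fun i j => ?_
    rw [self_eq_neg.1 (congrFun (congrFun this i) j).symm]; simp [xv]
  · by_cases c1 : e = s
    · subst c1; simp [xv, de_self]
    by_cases c2 : e = r0 + s
    · rw [v.2.2 e (c2 ▸ h2)]; simp [xv, de_ne c1]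
    rw [chr k c1 c2]; simp [xv, de_ne c1]
  · rw [z_W hz]; simp [xv]

theorem proj0 {W : Type*} [AddCommGroup W] [Module ℝ W] [FiniteDimensional ℝ W] (b : LinearMap.BilinForm ℝ W)
    (hs : ∀ u v, b u v = b v u) (h0 : ∀ u, b u u = 0 → u = 0) (U : Submodule ℝ W) (v : W) :
    ∃ y ∈ U, ∀ w ∈ U, b w y = b w v := by
  have nd : LinearMap.BilinForm.Nondegenerate (LinearMap.BilinForm.restrict b U) :=
    ⟨fun u h => Subtype.ext (h0 _ (h u)), fun u h => Subtype.ext (h0 _ (h u))⟩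
  refine ⟨((LinearMap.BilinForm.toDual _ nd).symm (b v ∘ₗ U.subtype)).1, Subtype.prop _, fun w hw => ?_⟩
  have := LinearMap.BilinForm.apply_toDual_symm_apply (hB := nd) (b v ∘ₗ U.subtype) ⟨w, hw⟩
  rw [hs w, hs w]
  exact this

theorem proj (U : Submodule ℝ V) (v : V) : ∃ y ∈ U, ∀ w ∈ U, Bf w y = Bf w v :=
  proj0 Bf amb.symm (fun _ => amb.zero) U v

theorem Bf_ext {u v : V} (h : ∀ z, Bf u z = Bf v z) : u = v :=
  sub_eq_zero.1 (amb.zero (by rw [map_sub Bf, LinearMap.sub_apply, h, sub_self]))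

/-- invariance under the stabiliser of the standard axis -/
def Inv (φ : V →ₗ[ℝ] V →ₗ[ℝ] ℝ) : Prop := ∀ g ∈ St, ∀ u v, φ (g • u) (g • v) = φ u v

variable {φ : V →ₗ[ℝ] V →ₗ[ℝ] ℝ}

theorem Inv.flip (h : Inv φ) : Inv φ.flip := fun g k u v => h g k v u

theorem Inv.rep (h : Inv φ) (q : V) : ∃ q', (∀ z, φ q z = Bf q' z) ∧
    ∀ g ∈ St, ∀ c : ℝ, g • q = c • q → g • q' = c • q' := by
  obtain ⟨q', e⟩ := riesz (φ q)
  refine ⟨q', e, fun g hg c k => Bf_ext fun z => ?_⟩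
  rw [Bf_smul', ← e, ← h g hg, smul_inv_smul, k, map_smul, map_smul, LinearMap.smul_apply, LinearMap.smul_apply, e]

theorem Inv.schur (h : Inv φ) {U : Submodule ℝ V} (hU : ∀ g ∈ St, ∀ u ∈ U, g • u ∈ U) {q : V} (hq : q ∈ U) {c : ℝ}
    (h1 : ∀ z, φ q z = c * Bf q z) (h3 : ∀ u ∈ U, (∀ g ∈ St, Bf q (g • u) = 0) → u = 0) {u : V} (hu : u ∈ U) (z : V) :
    φ u z = c * Bf u z := by
  obtain ⟨z', e⟩ := riesz (φ.flip z - c • Bf.flip z)
  have e1 : ∀ u, φ u z - c * Bf u z = Bf z' u := fun u => by rw [← e]; rfl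
  obtain ⟨y, hy, k⟩ := proj U z'
  have y0 : y = 0 := h3 y hy fun g hg => by
    rw [amb.symm, Bf_smul', amb.symm, k _ (hU _ (inv_mem hg) _ hq), amb.symm, ← e1, ← h g hg, smul_inv_smul, h1,
      Bf_smul', inv_inv, sub_self]
  rw [← sub_eq_zero, e1, amb.symm, ← k u hu, y0, map_zero]

theorem Inv.xv (h : Inv φ) (hs : Sh s) (h1 : s ≠ r0) (h2 : ¬ Sh (r0 + s)) : ∃ c, ∀ z, φ (xv s hs) z = c * Bf (xv s hs) z := by
  obtain ⟨q, e, k⟩ := h.rep (H15.NP.xv s hs)
  have := wt_one (v := q) hs h1 h2 (by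
    have := k zM z_St _ (qq_xv hs 1 0)
    rwa [B_zero_left, χ_zero, one_smul] at this) fun e a => k _ (qq_St a) _ (qq_xv hs 0 e)
  exact ⟨q.1.2.1 s, fun z => by rw [e, this, map_smul, LinearMap.smul_apply, ← this, smul_eq_mul]⟩

theorem ml_xv0 : ml a0 (xv e0 she) = 0 := Subtype.ext (by
  have n : e0 ≠ r0 := fun c => by have := ip_e0; rw [c, sh0.ip_self] at this; omega
  have n2 : ¬ Sh (e0 + r0) := by
    rcases she.rel sh0 with a | ⟨a, -⟩ | ⟨-, a, -⟩ | ⟨-, a, -⟩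
    exacts [absurd a n, by rw [ip_e0] at a; omega, a, a]
  rw [ml_coe, a0, av_coe sh0]
  refine Prod.ext ?_ (Prod.ext (funext fun e => ?_) (by rw [mu_ax3]; simp [xv]))
  · rw [mu_ax1]; simp [xv, de_ne n.symm]
  · by_cases a : Sh e
    · rw [mu_ax2 _ _ _ a]
      rcases eq_or_ne e e0 with rfl | b
      · have : r0 + e0 ≠ e0 := fun c => sh0.ne (by simpa using c)
        simp [xv, ip_e0, de_ne this]
      · have : r0 + e ≠ e0 := fun c => n2 (by rw [← c]; simpa [add_comm r0] using a)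
        simp [xv, de_ne b, de_ne this]
    · rw [mu_2n _ _ a]; rfl)

theorem Inv.v0 (h : Inv φ) : ∃ c, ∀ u, ml a0 u = 0 → Bf u1 u = 0 → ∀ z, φ u z = c * Bf u z := by
  have n : e0 ≠ r0 := fun c => by have := ip_e0; rw [c, sh0.ip_self] at this; omega
  have n2 : ¬ Sh (r0 + e0) := by
    rw [add_comm]
    rcases she.rel sh0 with a | ⟨a, -⟩ | ⟨-, a, -⟩ | ⟨-, a, -⟩
    exacts [absurd a n, by rw [ip_e0] at a; omega, a, a]
  obtain ⟨c, e⟩ := h.xv she n n2
  refine ⟨c, fun u a b => h.schur (U := LinearMap.ker (ml a0) ⊓ LinearMap.ker (Bf u1)) (fun g hg u k => ⟨?_, ?_⟩)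
    ⟨ml_xv0, ?_⟩ e (fun u k d => orth_0 k.1 k.2 fun g hg => ?_) ⟨a, b⟩⟩
  · simpa using v4_smul (c := 0) hg (by simpa using k.1)
  · change Bf u1 (g • u) = 0
    rw [← smul_u1 g, Bf_smul]; exact k.2
  · change Bf u1 _ = 0
    rw [Bf_u1]; simp [H15.NP.xv]
  · have := d g hg
    rw [Bf_xv] at this; linarith

theorem ml_u1a : ml a0 (u1 - a0) = 0 := by rw [map_sub, ml_comm, u1_ml, Xa_idem a0_mem, sub_self]

theorem Inv.a0 (h : Inv φ) (h2 : ∀ u, φ u u1 = 0) (h3 : φ a0 a0 = 0) (z : V) : φ a0 z = 0 := by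
  obtain ⟨c, d, e⟩ := fun_St (ψ := φ H14.Mn.a0) fun g hg v => by rw [← h g hg _ v, hg]
  have a := e u1
  have b := e H14.Mn.a0
  rw [h2, amb.symm, u1_Xa a0_mem, Bf_11] at a
  rw [h3, Xa_norm a0_mem, u1_Xa a0_mem] at b
  rw [e, show c = 0 by linarith, show d = 0 by linarith]; simp

theorem Inv.z0 (h : Inv φ) (h1 : ∀ u, φ u1 u = 0) (h2 : ∀ u, φ u u1 = 0) (h3 : ∀ b ∈ Xa, φ b b = 0) {u : V}
    (hu : ml H14.Mn.a0 u = 0) (z : V) : φ u z = 0 := by
  obtain ⟨c, e⟩ := h.v0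
  have k : ∀ u, ml H14.Mn.a0 u = 0 → ∀ z, φ u z = c * Bf (u - (Bf u1 u / 47) • (u1 - H14.Mn.a0)) z := fun u hu z => by
    rw [← e _ (by rw [map_sub, map_smul, ml_u1a, hu]; simp) (by
      rw [map_sub, map_smul, map_sub, Bf_11, u1_Xa a0_mem, smul_eq_mul]; ring)]
    simp [h1, h.a0 h2 (h3 _ a0_mem)]
  have b0 : Bf H14.Mn.a0 (av 1 r0) = 0 := by
    rw [H14.Mn.a0, Bf_av_av sh0 sh0, sh0.ip_self, if_pos rfl]; norm_num
  have := k _ (Xa_zero a0_mem (av_mem sh0) b0) (av 1 r0)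
  rw [h3 _ (av_mem sh0)] at this
  simp only [map_sub, map_smul, LinearMap.sub_apply, LinearMap.smul_apply, Xa_norm (av_mem sh0), u1_av sh0, b0,
    smul_eq_mul] at this
  rw [k u hu, show c = 0 by linarith, zero_mul]

theorem Inv.z4 (h : Inv φ) (h1 : ∀ u, φ u1 u = 0) (h2 : ∀ u, φ u u1 = 0) (h3 : ∀ b ∈ Xa, φ b b = 0) {u : V}
    (hu : ml H14.Mn.a0 u = (1 / 4 : ℝ) • u) (z : V) : φ u z = 0 := by
  have p := mp_tt a0_mem
  have tS : tt H14.Mn.a0 ∈ St := tt_self a0_mem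
  have i1 : ml H14.Mn.a0 H14.Mn.a0 = (1 : ℝ) • H14.Mn.a0 := by rw [Xa_idem a0_mem, one_smul]
  obtain ⟨q, e, k⟩ := h.rep q0
  have q4 : ml H14.Mn.a0 q = (1 / 4 : ℝ) • q := by
    obtain ⟨x, y, w, d, k1, k2, k3, hx, hy, hw⟩ := p.dec' q
    have x0 : ml H14.Mn.a0 x = (0 : ℝ) • x := by rw [hx, zero_smul]
    have a1 : Bf H14.Mn.a0 q = 0 := by rw [amb.symm, ← e]; exact h.flip.a0 h1 (h3 _ a0_mem) q0
    have a2 : x = 0 := amb.zero (by
      have : Bf x q = 0 := by rw [amb.symm, ← e]; exact h.flip.z0 h2 h1 h3 hx q0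
      rw [d] at this
      simpa [amb.orth x0 i1 (by norm_num), amb.orth x0 hy (by norm_num), amb.orth x0 hw (by norm_num)] using this)
    have a3 : w = 0 := amb.zero (by
      have : Bf w q = 0 := by
        have := h _ tS q0 w
        rw [show tt H14.Mn.a0 • q0 = q0 from p.f4 q0_eig, show tt H14.Mn.a0 • w = -w from k3, map_neg] at this
        rw [amb.symm, ← e]; linarith
      rw [d] at this
      simpa [amb.orth hw i1 (by norm_num), amb.orth hw hy (by norm_num), amb.orth hw x0 (by norm_num)] using this)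
    rw [d, a1, a2, a3]; simpa using hy
  obtain ⟨c, d⟩ := q0_uniq q4 fun e a => k _ (qq_St a) _ (q0_chr a)
  have key : ∀ u, ml H14.Mn.a0 u = (1 / 4 : ℝ) • u → ∀ z, φ u z = c * Bf u z := fun u hu =>
    h.schur (U := Module.End.eigenspace (ml H14.Mn.a0) (1 / 4)) (q := q0)
      (fun g hg u k => Module.End.mem_eigenspace_iff.2 (v4_smul hg (Module.End.mem_eigenspace_iff.1 k)))
      (Module.End.mem_eigenspace_iff.2 q0_eig) (fun z => by rw [e, d, map_smul, LinearMap.smul_apply, smul_eq_mul])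
      (fun u k c => by
        rw [Module.End.mem_eigenspace_iff] at k
        exact orth_s k fun g h => by have := Bf_q0 (v4_smul h k); rw [c g h] at this; linarith)
      (Module.End.mem_eigenspace_iff.2 hu)
  have D := D_s0 (ε := 0)
  obtain ⟨x, y, a, hx, hy, b, -⟩ := p.even amb (v := av 0 s0) D.symm.fix
  have y0 : y ≠ 0 := fun c => by
    have := D.pn
    have x0 : ml H14.Mn.a0 x = (0 : ℝ) • x := by rw [hx, zero_smul]
    have o : Bf (H14.Mn.pv H14.Mn.a0 (av 0 s0)) (av 0 s0) = 0 := by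
      nth_rewrite 2 [a]
      simp [c, amb.orth D.eig i1 (by norm_num), amb.orth D.eig x0 (by norm_num)]
    rw [H14.Mn.pv, map_sub, LinearMap.sub_apply, Xa_norm D.hx, amb.symm, D.sg'.c] at o
    norm_num at o
  have := h3 _ D.hx
  nth_rewrite 1 [a] at this
  rw [map_add, map_add, map_smul, LinearMap.add_apply, LinearMap.add_apply, LinearMap.smul_apply,
    h.a0 h2 (h3 _ a0_mem), h.z0 h1 h2 h3 hx, key y hy, b] at this
  rw [key u hu, show c = 0 by simpa [(amb.pos y y0).ne'] using this, zero_mul]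

theorem Inv.zp (h : Inv φ) (h1 : ∀ u, φ u1 u = 0) (h2 : ∀ u, φ u u1 = 0) (h3 : ∀ b ∈ Xa, φ b b = 0) {u : V}
    (hu : tt H14.Mn.a0 • u = u) (z : V) : φ u z = 0 := by
  obtain ⟨x, y, a, hx, hy, -⟩ := (mp_tt a0_mem).even amb hu
  rw [a, map_add, map_add, map_smul, LinearMap.add_apply, LinearMap.add_apply, LinearMap.smul_apply,
    h.a0 h2 (h3 _ a0_mem), h.z0 h1 h2 h3 hx, h.z4 h1 h2 h3 hy]; simp

theorem ex64 : ∃ s, Sh s ∧ B r0 s = 1 := by
  obtain ⟨d, hd⟩ := exists_sep (i := none) (j := some 0) (by simp)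
  refine ⟨eX d none, sh_X _ _, ?_⟩
  have : (ip (eX d none) r0 : ℝ) ^ 2 = 64 := by
    rw [ip_comm, ← fr_mat, r0, fr_U _ (by simp)]
    simp only [mat_X, z2_add_self, hd, add_comm (G d (some 0)), χ_one, χ_zero, dl]
    simp; norm_num
  have k : ip (eX d none) r0 ^ 2 = 64 := by exact_mod_cast this
  rw [B_comm]
  rcases (sh_X d none).rel sh0 with a | ⟨a, -⟩ | ⟨-, -, a⟩ | ⟨a, -⟩
  exacts [by rw [a, sh0.ip_self] at k; omega, by omega, a, by rw [a] at k; omega]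

theorem rel64 (hs : Sh s) (b : B r0 s = 1) : s ≠ r0 ∧ ip s r0 ^ 2 = 64 ∧ ¬ Sh (r0 + s) := by
  rw [B_comm] at b
  rw [add_comm]
  rcases hs.rel sh0 with a | ⟨-, -, a⟩ | ⟨a, c, -⟩ | ⟨-, -, a⟩
  · simp [a] at b
  · simp [a] at b
  · exact ⟨fun c => by rw [c, sh0.ip_self] at a; omega, a, c⟩
  · simp [a] at b

theorem orth32 (hs : Sh s) (b : B r0 s = 1) (h0 : tt a0 • v = -v) (h : ∀ x ∈ St, (x • v).1.2.1 s = 0) : v = 0 := by
  have t : ∀ x ∈ St, qq 0 r0 • x • v = -(x • v) := fun x hx => by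
    rw [← tt_a0, ← mul_smul, ← (fix_iff a0_mem).1 hx, mul_smul, h0, smul_neg]
  have k : ∀ x ∈ St, (x • v).1.2.1 = 0 := fun x hx => funext fun e => by
    by_cases a : Sh e
    · rcases z2 (B r0 e) with c | c
      · have := qq_2 (η := 0) r0 (x • v) e
        rw [t x hx, c, χ_zero, one_mul] at this
        exact self_eq_neg.1 this.symm
      · obtain ⟨g, c, d⟩ := trans2 sh0 a hs ((rel64 a c).2.1.trans (rel64 hs b).2.1.symm)
        obtain ⟨_, s, H, c⟩ := stab_lift sh0 c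
        have := h _ (mul_mem (c 0) hx)
        rw [mul_smul, ← d, LM_2] at this
        exact (mul_eq_zero.1 this).resolve_left (χ_ne _)
    · exact (x • v).2.2 e a
  have k1 := k 1 (one_mem _)
  have k2 := t 1 (one_mem _)
  rw [one_smul] at k1 k2
  refine Subtype.ext (Prod.ext ?_ (Prod.ext k1 (odd_part k)))
  have := qq_1 (η := 0) r0 v
  rw [k2] at this
  exact Matrix.ext fun i j => self_eq_neg.1 (congrFun (congrFun this i) j).symm

theorem Inv.zero (h : Inv φ) (h1 : ∀ u, φ u1 u = 0) (h2 : ∀ u, φ u u1 = 0) (h3 : ∀ b ∈ Xa, φ b b = 0) (u z : V) :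
    φ u z = 0 := by
  obtain ⟨s, hs, b⟩ := ex64
  obtain ⟨n, -, n2⟩ := rel64 hs b
  obtain ⟨c, e⟩ := h.xv hs n n2
  have key : ∀ u, tt H14.Mn.a0 • u = -u → ∀ z, φ u z = c * Bf u z := fun u hu =>
    h.schur (U := Module.End.eigenspace (rp (tt H14.Mn.a0)) (-1)) (q := H15.NP.xv s hs)
      (fun g hg u k => Module.End.mem_eigenspace_iff.2 (by
        rw [rp_apply, ← mul_smul, ← (fix_iff a0_mem).1 hg, mul_smul, ← rp_apply (tt _), Module.End.mem_eigenspace_iff.1 k,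
          smul_smul']))
      (Module.End.mem_eigenspace_iff.2 (by rw [rp_apply, tt_a0, qq_xv, b, χ_one])) e
      (fun u k c => by
        rw [Module.End.mem_eigenspace_iff, rp_apply, neg_one_smul] at k
        exact orth32 hs b k fun g h => by have := c g h; rw [Bf_xv] at this; linarith)
      (Module.End.mem_eigenspace_iff.2 (by rw [rp_apply, hu, neg_one_smul]))
  have dec : ∀ u z, φ u z = c / 2 * Bf (u - tt H14.Mn.a0 • u) z := fun u z => by
    have a1 := h.zp h1 h2 h3 (u := u + tt H14.Mn.a0 • u) (by rw [smul_add, tt_tt a0_mem, add_comm]) z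
    have a2 := key (u - tt H14.Mn.a0 • u) (by rw [smul_sub, tt_tt a0_mem, neg_sub]) z
    rw [map_add, LinearMap.add_apply] at a1
    rw [map_sub φ, LinearMap.sub_apply] at a2
    linarith
  have := dec (av 0 s) (av 0 s)
  rw [h3 _ (av_mem hs), tt_a0, qq_av _ hs, b, map_sub, LinearMap.sub_apply, Xa_norm (av_mem hs), Bf_av_av hs hs,
    hs.ip_self, if_pos rfl] at this
  norm_num at this
  rw [dec, ← this, zero_mul]

theorem tri_zero {f : V →ₗ[ℝ] V →ₗ[ℝ] V →ₗ[ℝ] ℝ} (h : ∀ (g : Mon) x y z, f (g • x) (g • y) (g • z) = f x y z)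
    (h1 : ∀ y z, f u1 y z = 0) (h2 : ∀ x z, f x u1 z = 0) (h3 : ∀ x y, f x y u1 = 0) (h0 : f a0 a0 a0 = 0) (x y z : V) :
    f x y z = 0 := by
  have i1 : Inv (f a0) := fun g hg u v => by rw [← h g a0 u v, hg]
  have i2 : Inv (f.flip a0) := fun g hg u v => by
    change f (g • u) a0 (g • v) = f u a0 v
    rw [← h g u a0 v, hg]
  have s0 : ∀ x z, f x a0 z = f z a0 x := fun x z => sub_eq_zero.1
    (Inv.zero (φ := f.flip a0 - (f.flip a0).flip) (fun g hg u v => congrArg₂ (· - ·) (i2 g hg u v) (i2 g hg v u))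
      (fun u => by change f u1 a0 u - f u a0 u1 = 0; rw [h1, h3, sub_self])
      (fun u => by change f u a0 u1 - f u1 a0 u = 0; rw [h1, h3, sub_self]) (fun b _ => sub_self _) x z)
  have k : ∀ y z, f a0 y z = 0 := i1.zero (h2 _) (h3 _) fun b ⟨g, e⟩ => by
    have e : g • a0 = b := e
    rw [← e, ← smul_inv_smul g a0, h, smul_inv_smul, s0]
    exact i1.a0 (h3 _) h0 _
  have := fun_ext (ψ := (f.flip y).flip z) (ψ' := 0) fun g => by
    change f (g • a0) y z = 0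
    rw [← smul_inv_smul g y, ← smul_inv_smul g z, h, k]
  exact LinearMap.congr_fun this x

end H15.NP
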