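import Cfsg.Agent.H15.NP.A

/-!
# The Norton pair of the Monster
-/

set_option autoImplicit false

namespace H15.NP

open Finset Matrix H14.Mj H14.Mn MulAction

attribute [-simp] Fintype.sum_option
attribute [local irreducible] Fintype.piFinset

/-- a Norton pair -/
def Norton {Γ W : Type*} [Group Γ] [AddCommGroup W] [Module ℝ W] (ρ : Representation ℝ Γ W) : Prop :=
  Function.Injective ρ ∧ (∀ U : Submodule ℝ W, (∀ g : Γ, U.map (ρ g) ≤ U) → U = ⊥ ∨ U = ⊤) ∧
    (∃ B : LinearMap.BilinForm ℝ W, B ≠ 0 ∧ (∀ u v, B u v = B v u) ∧ ∀ (g : Γ) (u v : W), B (ρ g u) (ρ g v) = B u v) ∧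
    ∃ m : W →ₗ[ℝ] W →ₗ[ℝ] W, m ≠ 0 ∧ (∀ u v, m u v = m v u) ∧ (∀ (g : Γ) (u v : W), m (ρ g u) (ρ g v) = ρ g (m u v)) ∧
      ∀ m' : W →ₗ[ℝ] W →ₗ[ℝ] W, (∀ (g : Γ) (u v : W), m' (ρ g u) (ρ g v) = ρ g (m' u v)) → ∃ c : ℝ, m' = c • m

theorem Norton.transport {Γ Γ' W W' : Type*} [Group Γ] [Group Γ'] [AddCommGroup W] [Module ℝ W] [AddCommGroup W']
    [Module ℝ W'] {ρ : Representation ℝ Γ W} (h : Norton ρ) (e : Γ' ≃* Γ) (j : W ≃ₗ[ℝ] W') :
    ∃ ρ' : Representation ℝ Γ' W', Norton ρ' := by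
  obtain ⟨h1, h2, ⟨B, b1, b2, b3⟩, m, m1, m2, m3, m4⟩ := h
  let ρ' : Representation ℝ Γ' W' :=
    { toFun g := j.toLinearMap ∘ₗ ρ (e g) ∘ₗ j.symm.toLinearMap
      map_one' := by ext; simp
      map_mul' g k := by ext; simp }
  have r : ∀ g u, ρ' g u = j (ρ (e g) (j.symm u)) := fun _ _ => rfl
  refine ⟨ρ', fun g k c => e.injective (h1 (LinearMap.ext fun u => j.injective ?_)), fun U hU => ?_,
    ⟨B.compl₁₂ j.symm.toLinearMap j.symm.toLinearMap, fun c => b1 ?_, fun u v => b2 _ _, fun g u v => ?_⟩,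
    (m.compl₁₂ j.symm.toLinearMap j.symm.toLinearMap).compr₂ j.toLinearMap, fun c => m1 ?_,
    fun u v => congrArg j (m2 _ _), fun g u v => ?_, fun m' k => ?_⟩
  · simpa [r] using LinearMap.congr_fun c (j u)
  · rcases h2 (U.comap j.toLinearMap) (fun g => by
      rintro _ ⟨u, hu, rfl⟩
      have := hU (e.symm g) ⟨j u, hu, rfl⟩
      simpa [r] using this) with c | c
    · refine Or.inl (eq_bot_iff.2 fun u hu => ?_)
      have : j.symm u ∈ U.comap j.toLinearMap := by simpa using hu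
      rw [c] at this
      simpa using this
    · refine Or.inr (eq_top_iff.2 fun u _ => ?_)
      have : j.symm u ∈ U.comap j.toLinearMap := c ▸ Submodule.mem_top
      simpa using this
  · ext u v
    simpa using LinearMap.congr_fun (LinearMap.congr_fun c (j u)) (j v)
  · simp [r, b3]
  · ext u v
    simpa using LinearMap.congr_fun (LinearMap.congr_fun c (j u)) (j v)
  · simp [r, m3]
  · obtain ⟨c, d⟩ := m4 ((m'.compl₁₂ j.toLinearMap j.toLinearMap).compr₂ j.symm.toLinearMap) fun g u v => by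
      have := k (e.symm g) (j u) (j v)
      simp only [r, MulEquiv.apply_symm_apply, LinearEquiv.symm_apply_apply] at this
      simp [this]
    refine ⟨c, ?_⟩
    ext u v
    have := congrArg j (LinearMap.congr_fun (LinearMap.congr_fun d (j.symm u)) (j.symm v))
    simpa using this

/-- the complement of the identity -/
noncomputable abbrev V0 : Submodule ℝ V := LinearMap.ker (Bf u1)

theorem V0_smul (g : Mon) (v : V) (h : v ∈ V0) : rp g v ∈ V0 := by
  rwa [LinearMap.mem_ker, rp_apply, ← smul_u1 g, Bf_smul]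

/-- the representation of degree 196883 -/
noncomputable def ρ0 : Representation ℝ Mon V0 where
  toFun g := (rp g).restrict (V0_smul g)
  map_one' := rfl
  map_mul' _ _ := rfl

theorem ρ0_coe (g : Mon) (v : V0) : (ρ0 g v : V) = g • (v : V) := rfl

/-- the projection -/
noncomputable def π0 : V →ₗ[ℝ] V0 :=
  (LinearMap.id - (1 / 48 : ℝ) • (Bf u1).smulRight u1 : V →ₗ[ℝ] V).codRestrict V0 fun v => by
    simp [Bf_11]; ring

theorem π0_coe (v : V) : (π0 v : V) = v - (Bf u1 v / 48) • u1 := by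
  change v - (1 / 48 : ℝ) • Bf u1 v • u1 = _
  rw [smul_smul]; congr 2; ring

theorem π0_V0 (v : V0) : π0 v = v := Subtype.ext (by rw [π0_coe, LinearMap.mem_ker.1 v.2]; simp)
theorem π0_u1 : π0 u1 = 0 := Subtype.ext (by rw [π0_coe, Bf_11]; simp)
theorem π0_smul (g : Mon) (v : V) : π0 (g • v) = ρ0 g (π0 v) := Subtype.ext (by
  rw [ρ0_coe, π0_coe, π0_coe, smul_sub, smul_smul', smul_u1, ← smul_u1 g, Bf_smul, smul_u1])

theorem dim_V0 : Module.finrank ℝ V0 = 196883 := by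
  have := Module.Dual.finrank_ker_add_one_of_ne_zero (f := Bf u1) fun c => by simpa [c] using Bf_11
  rw [dim_V] at this
  exact Nat.succ_injective this

theorem ρ0_inj : Function.Injective ρ0 := (injective_iff_map_eq_one _).2 fun g h => Mon_ext fun v => congrArg _ (by
  have := congrArg Subtype.val (LinearMap.congr_fun h (π0 v))
  rw [ρ0_coe, π0_coe, smul_sub, smul_smul', smul_u1] at this
  change _ = (π0 v : V) at this
  rwa [π0_coe, sub_left_inj] at this)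

theorem ρ0_irr (U : Submodule ℝ V0) (h : ∀ g, U.map (ρ0 g) ≤ U) : U = ⊥ ∨ U = ⊤ := by
  have hU : ∀ (g : Mon), ∀ u ∈ U.map V0.subtype, g • u ∈ U.map V0.subtype := by
    rintro g _ ⟨u, hu, rfl⟩
    exact ⟨_, h g ⟨u, hu, rfl⟩, rfl⟩
  obtain ⟨y, hy, k⟩ := proj (U.map V0.subtype) a0
  obtain ⟨c, d, e⟩ := fix_St (v := y) fun g hg => sub_eq_zero.1 (amb.zero (by
    have m := sub_mem (hU g y hy) hy
    generalize hw : g • y - y = w at m
    rw [← congrArg (Bf w) hw, map_sub, amb.symm w (g • y), Bf_smul', amb.symm, k _ (hU _ _ m), k _ m, ← Bf_smul g,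
      smul_inv_smul, hg, sub_self]))
  have y1 : Bf u1 y = 0 := by obtain ⟨u, -, rfl⟩ := hy; exact u.2
  have y2 : y = c • (π0 a0 : V) := by
    rw [e, map_add, map_smul, map_smul, Bf_11, u1_Xa a0_mem, smul_eq_mul, smul_eq_mul] at y1
    rw [e, π0_coe, u1_Xa a0_mem, show d = -(c / 48) by linarith]; module
  rcases eq_or_ne c 0 with c0 | c0
  · refine Or.inl (eq_bot_iff.2 fun u hu => (Submodule.mem_bot ℝ).2 (Subtype.ext (orth_all fun g => ?_)))
    rw [Bf_smul', amb.symm, ← k _ (hU _ (u : V) ⟨u, hu, rfl⟩), y2, c0]; simp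
  · refine Or.inr (by_contra fun n => ?_)
    obtain ⟨ψ, p1, p2⟩ := Submodule.exists_le_ker_of_lt_top (V := V0) U (lt_top_iff_ne_top.2 n)
    have a : π0 a0 ∈ U := by
      obtain ⟨u, hu, e⟩ := hy
      have : u = c • π0 a0 := Subtype.ext (e.trans y2)
      rw [this] at hu
      exact (U.smul_mem_iff c0).1 hu
    have := fun_ext (ψ := ψ ∘ₗ π0) (ψ' := 0) fun g => by
      rw [LinearMap.comp_apply, π0_smul]
      exact p2 (h g ⟨_, a, rfl⟩)
    exact p1 (LinearMap.ext fun v => by rw [← π0_V0 v]; exact LinearMap.congr_fun this v)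

theorem prod_zero {m : V0 →ₗ[ℝ] V0 →ₗ[ℝ] V0} (h : ∀ g u v, m (ρ0 g u) (ρ0 g v) = ρ0 g (m u v))
    (h0 : Bf (m (π0 a0) (π0 a0)) a0 = 0) : m = 0 := by
  have := tri_zero (f := (m.compl₁₂ π0 π0).compr₂ (Bf ∘ₗ V0.subtype))
    (fun g x y z => by
      change Bf (m (π0 (g • x)) (π0 (g • y))) (g • z) = Bf (m (π0 x) (π0 y)) z
      rw [π0_smul, π0_smul, h, ρ0_coe, Bf_smul])
    (fun y z => by change Bf (m (π0 u1) (π0 y)) z = 0; simp [π0_u1])
    (fun y z => by change Bf (m (π0 y) (π0 u1)) z = 0; simp [π0_u1])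
    (fun x y => by change Bf (m (π0 x) (π0 y)) u1 = 0; rw [amb.symm]; exact (m (π0 x) (π0 y)).2) h0
  refine LinearMap.ext fun u => LinearMap.ext fun v => Subtype.ext (amb.zero ?_)
  have := this u v (m u v)
  change Bf (m (π0 u) (π0 v)) _ = 0 at this
  rwa [π0_V0, π0_V0] at this

/-- the Norton product -/
noncomputable def m0 : V0 →ₗ[ℝ] V0 →ₗ[ℝ] V0 := (ml.compl₁₂ V0.subtype V0.subtype).compr₂ π0

theorem m0_apply (u v : V0) : m0 u v = π0 (ml u v) := rfl

theorem m0_a0 : Bf (m0 (π0 a0) (π0 a0)) a0 = 23 / 24 * (47 / 48) := by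
  rw [m0_apply, π0_coe, π0_coe, u1_Xa a0_mem]
  simp only [map_sub, map_smul, LinearMap.sub_apply, LinearMap.smul_apply, Xa_idem a0_mem, ml_comm a0 u1, u1_ml,
    Xa_norm a0_mem, u1_Xa a0_mem, Bf_11, smul_eq_mul]
  norm_num

theorem m0_smul (g : Mon) (u v : V0) : m0 (ρ0 g u) (ρ0 g v) = ρ0 g (m0 u v) := by
  rw [m0_apply, m0_apply, ρ0_coe, ρ0_coe, ← ml_smul, π0_smul]

theorem m0_ne : m0 ≠ 0 := fun c => by
  have := m0_a0
  rw [c] at this
  norm_num at this

theorem B0_ne : Bf.compl₁₂ V0.subtype V0.subtype ≠ 0 := fun c => m0_ne (prod_zero m0_smul (by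
  have k : ∀ u : V0, (u : V) = 0 := fun u => amb.zero (LinearMap.congr_fun (LinearMap.congr_fun c u) u)
  rw [k, map_zero, LinearMap.zero_apply]))

theorem m0_uniq (m : V0 →ₗ[ℝ] V0 →ₗ[ℝ] V0) (h : ∀ g u v, m (ρ0 g u) (ρ0 g v) = ρ0 g (m u v)) : ∃ c : ℝ, m = c • m0 := by
  refine ⟨Bf (m (π0 a0) (π0 a0)) a0 / (23 / 24 * (47 / 48)), ?_⟩
  generalize hc : Bf (m (π0 a0) (π0 a0)) a0 / (23 / 24 * (47 / 48)) = c
  have e : ∀ u v, ((m + (-c) • m0) u v : V) = m u v - c • m0 u v := fun u v => by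
    change (m u v : V) + (-c) • (m0 u v : V) = _
    module
  have := prod_zero (m := m + (-c) • m0) (fun g u v => Subtype.ext (by
    rw [e, h, m0_smul, ρ0_coe, ρ0_coe, ρ0_coe, e, smul_sub, smul_smul'])) (by
    rw [e, map_sub, map_smul, LinearMap.sub_apply, LinearMap.smul_apply, m0_a0, ← hc, smul_eq_mul]
    field_simp; ring)
  exact LinearMap.ext fun u => LinearMap.ext fun v => Subtype.ext
    (sub_eq_zero.1 ((e u v).symm.trans (by rw [this]; rfl)))

theorem norton0 : Norton (Γ := Mon) (W := V0) ρ0 :=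
  ⟨ρ0_inj, ρ0_irr, ⟨Bf.compl₁₂ V0.subtype V0.subtype, B0_ne, fun _ _ => amb.symm _ _, fun g _ _ => Bf_smul g _ _⟩,
    m0, m0_ne, fun _ _ => congrArg π0 (ml_comm _ _), m0_smul, m0_uniq⟩

theorem ex_eq {W : Type*} [AddCommGroup W] [Module ℝ W] [FiniteDimensional ℝ W] {n : ℕ} (h : Module.finrank ℝ W = n) :
    Nonempty (W ≃ₗ[ℝ] (Fin n → ℝ)) := ⟨LinearEquiv.ofFinrankEq _ _ (by rw [h]; simp)⟩

theorem s5540 {Γ : Type*} [Group Γ] (e : Γ ≃* Mon) : ∃ ρ : Representation ℝ Γ (Fin 196883 → ℝ), Norton ρ :=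
  (ex_eq (W := V0) dim_V0).elim fun j => norton0.transport e j

end H15.NP
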